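import Cfsg.Agent.H3.Mu.A6.Tab

/-! Generated labelled table of a central extension. -/

set_option autoImplicit false
set_option maxRecDepth 100000

open Cfsg.Agent.L0

namespace Cfsg.Agent.H3.A6

noncomputable def L2Erowt0 : BT := .leaf (nat_lit 0x9d366c99d3274e8f32444830e1428cfe74a8925dcc78f25b9791a53c672a4326b29bbe80c643a651a1a98b1142b8cfdc3a4f1162858951c05cc20264881f21848a0207ca95b46c74f9e58b8c9772d933a62c0a382af0b3a28e1a995471b136a60f116cccb3464508b02c3572f446170f1a90d0b1638d24582531c441d6293ca94210e984054820706441500c240ce1b1040f03381851a340c50e026099218580942008910020000e18282041018202)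

noncomputable def L2Erowtree : BT := L2Erowt0

noncomputable def L2Erow : ℕ → ℕ := rowOf L2Erowtree (nat_lit 6) (nat_lit 63) (nat_lit 35) (nat_lit 0x7ffffffff)

noncomputable def L2E : ℕ → ℕ → ℕ := pT L2Erow (nat_lit 7) (nat_lit 127)

def L2RL : List (List ℕ × ℕ) := [([nat_lit 0, nat_lit 4], nat_lit 0),
  ([nat_lit 1, nat_lit 1], nat_lit 1),
  ([nat_lit 2, nat_lit 2], nat_lit 1),
  ([nat_lit 3, nat_lit 3], nat_lit 1),
  ([nat_lit 4, nat_lit 0], nat_lit 0),
  ([nat_lit 0, nat_lit 0, nat_lit 0], nat_lit 0),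
  ([nat_lit 1, nat_lit 0, nat_lit 1, nat_lit 0, nat_lit 1, nat_lit 0], nat_lit 0),
  ([nat_lit 2, nat_lit 0, nat_lit 2, nat_lit 0], nat_lit 1),
  ([nat_lit 2, nat_lit 1, nat_lit 2, nat_lit 1, nat_lit 2, nat_lit 1], nat_lit 0),
  ([nat_lit 3, nat_lit 0, nat_lit 3, nat_lit 0], nat_lit 1),
  ([nat_lit 3, nat_lit 1, nat_lit 3, nat_lit 1], nat_lit 1),
  ([nat_lit 3, nat_lit 2, nat_lit 3, nat_lit 2, nat_lit 3, nat_lit 2], nat_lit 1)]

noncomputable def L2chkf : ℕ → Bool := relChkL L2E (nat_lit 1) (nat_lit 1) (nat_lit 1) (nat_lit 2) (nat_lit 40) [nat_lit 0, nat_lit 1, nat_lit 2, nat_lit 3, nat_lit 4] L2RL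

theorem L2chkb0 : allR L2chkf 6 0 = true := by decide +kernel

theorem L2chk : ∀ c < 40, L2chkf c = true := fun c hc =>
  allR_glue (d := 6) (n := 1) (forall_lt_succ' forall_lt_zero' L2chkb0) c (lt_of_lt_of_le hc (by norm_num))

theorem L2rep : Rep 5 R (ZMod 2) 1 (valL L2RL 2) :=
  rep_of_chk (by decide +kernel) (by decide) (by decide) (by decide +kernel) (by decide +kernel)
    (by decide +kernel) le_rfl L2chk

end Cfsg.Agent.H3.A6
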