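import Cfsg.Agent.H3.VecModel

/-! Generated permutation table, new letters and stabiliser chain. -/

set_option autoImplicit false
set_option maxRecDepth 100000

open Cfsg.Agent.L0

namespace Cfsg.Agent.H3.A6

noncomputable def Trowt0 : BT := .leaf (nat_lit 0x2cb6cae46e261265000124a)

noncomputable def Trowtree : BT := Trowt0

noncomputable def Trow : ℕ → ℕ := rowOf Trowtree (nat_lit 3) (nat_lit 7) (nat_lit 15) (nat_lit 0x7fff)

noncomputable def T : ℕ → ℕ → ℕ := pT Trow (nat_lit 3) (nat_lit 7)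

/-- definitions of the new letters -/
def D : List (List ℕ) := [[nat_lit 0, nat_lit 4]]

/-- the relators -/
def R : List (List ℕ) := [[nat_lit 0, nat_lit 4],
  [nat_lit 1, nat_lit 1],
  [nat_lit 2, nat_lit 2],
  [nat_lit 3, nat_lit 3],
  [nat_lit 4, nat_lit 0],
  [nat_lit 0, nat_lit 0, nat_lit 0],
  [nat_lit 1, nat_lit 0, nat_lit 1, nat_lit 0, nat_lit 1, nat_lit 0],
  [nat_lit 2, nat_lit 0, nat_lit 2, nat_lit 0],
  [nat_lit 2, nat_lit 1, nat_lit 2, nat_lit 1, nat_lit 2, nat_lit 1],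
  [nat_lit 3, nat_lit 0, nat_lit 3, nat_lit 0],
  [nat_lit 3, nat_lit 1, nat_lit 3, nat_lit 1],
  [nat_lit 3, nat_lit 2, nat_lit 3, nat_lit 2, nat_lit 3, nat_lit 2]]

/-- the base -/
def B : List ℕ := [nat_lit 5, nat_lit 4, nat_lit 3, nat_lit 2]

/-- the base known in advance -/
def Bf : List ℕ := [nat_lit 0, nat_lit 1, nat_lit 2, nat_lit 3, nat_lit 4, nat_lit 5]

noncomputable def dchkf : ℕ → Bool := defChk T (nat_lit 6) D

noncomputable def info3t0 : BT := .leaf (nat_lit 0xe)

noncomputable def info3tree : BT := info3t0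

noncomputable def info3 : ℕ → ℕ := rowOf info3tree (nat_lit 3) (nat_lit 7) (nat_lit 2) (nat_lit 0x3)

def S3 : List (List ℕ) := [[nat_lit 0],
  [nat_lit 4]]

noncomputable def lev3f : ℕ → Bool := RAct.levI T S3 info3 (nat_lit 1) (nat_lit 1) (nat_lit 0) (nat_lit 3) (nat_lit 2)

noncomputable def info2t0 : BT := .leaf (nat_lit 0x5a8)

noncomputable def info2tree : BT := info2t0

noncomputable def info2 : ℕ → ℕ := rowOf info2tree (nat_lit 3) (nat_lit 7) (nat_lit 4) (nat_lit 0xf)

def S2 : List (List ℕ) := [[nat_lit 0],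
  [nat_lit 1],
  [nat_lit 4]]

noncomputable def lev2f : ℕ → Bool := RAct.levI T S2 info2 (nat_lit 3) (nat_lit 2) (nat_lit 0) (nat_lit 4) (nat_lit 3)

noncomputable def info1t0 : BT := .leaf (nat_lit 0x69fc)

noncomputable def info1tree : BT := info1t0

noncomputable def info1 : ℕ → ℕ := rowOf info1tree (nat_lit 3) (nat_lit 7) (nat_lit 4) (nat_lit 0xf)

def S1 : List (List ℕ) := [[nat_lit 0],
  [nat_lit 1],
  [nat_lit 2],
  [nat_lit 4]]

noncomputable def lev1f : ℕ → Bool := RAct.levI T S1 info1 (nat_lit 3) (nat_lit 2) (nat_lit 0) (nat_lit 5) (nat_lit 4)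

noncomputable def info0t0 : BT := .leaf (nat_lit 0xb499920)

noncomputable def info0tree : BT := info0t0

noncomputable def info0 : ℕ → ℕ := rowOf info0tree (nat_lit 3) (nat_lit 7) (nat_lit 6) (nat_lit 0x3f)

def S0 : List (List ℕ) := [[nat_lit 0],
  [nat_lit 1],
  [nat_lit 2],
  [nat_lit 3],
  [nat_lit 4]]

noncomputable def lev0f : ℕ → Bool := RAct.levI T S0 info0 (nat_lit 7) (nat_lit 3) (nat_lit 0) (nat_lit 6) (nat_lit 5)

theorem dchkb0 : allR dchkf 3 0 = true := by decide +kernel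
theorem lev3b0 : allR lev3f 2 0 = true := by decide +kernel
theorem lev2b0 : allR lev2f 2 0 = true := by decide +kernel
theorem lev1b0 : allR lev1f 3 0 = true := by decide +kernel
theorem lev0b0 : allR lev0f 3 0 = true := by decide +kernel

theorem dchk : ∀ c < 6, dchkf c = true := fun c hc =>
  allR_glue (d := 3) (n := 1) (forall_lt_succ' forall_lt_zero' dchkb0) c (lt_of_lt_of_le hc (by norm_num))

theorem lev3 : ∀ c < 3, lev3f c = true := fun c hc =>
  allR_glue (d := 2) (n := 1) (forall_lt_succ' forall_lt_zero' lev3b0) c (lt_of_lt_of_le hc (by norm_num))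

theorem lev2 : ∀ c < 4, lev2f c = true := fun c hc =>
  allR_glue (d := 2) (n := 1) (forall_lt_succ' forall_lt_zero' lev2b0) c (lt_of_lt_of_le hc (by norm_num))

theorem lev1 : ∀ c < 5, lev1f c = true := fun c hc =>
  allR_glue (d := 3) (n := 1) (forall_lt_succ' forall_lt_zero' lev1b0) c (lt_of_lt_of_le hc (by norm_num))

theorem lev0 : ∀ c < 6, lev0f c = true := fun c hc =>
  allR_glue (d := 3) (n := 1) (forall_lt_succ' forall_lt_zero' lev0b0) c (lt_of_lt_of_le hc (by norm_num))

theorem ext {G : Type*} [Group G] {A : RAct G 6} {g : ℕ → G} (h : A.Tab g 4 T) :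
    ∃ g' : ℕ → G, (∀ i < 4, g' i = g i) ∧ A.Tab g' 5 T ∧
      genL g' (List.range 5) = genL g (List.range 4) :=
  tab_extend' h (D := D) (by decide +kernel) (by decide +kernel) le_rfl dchk

/-- the levels -/
def L : List (ℕ × ℕ × ℕ) := [(nat_lit 5, nat_lit 0, nat_lit 6), (nat_lit 4, nat_lit 0, nat_lit 5), (nat_lit 3, nat_lit 0, nat_lit 4), (nat_lit 2, nat_lit 0, nat_lit 3)]

theorem chain {G : Type*} [Group G] {A : RAct G 6} {x : ℕ → G} (h : A.Tab x 5 T) :
    A.Chain ⊤ [] (ivl L) :=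
  chain_cons h (by decide +kernel) lev0
    (chain_cons h (by decide +kernel) lev1
    (chain_cons h (by decide +kernel) lev2
    (chain_cons h (by decide +kernel) lev3
    (chain_nil))))

end Cfsg.Agent.H3.A6
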