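import Cfsg.Agent.H3.Mu.A6.Core
import Cfsg.Agent.H3.Mu.A6.L2
import Cfsg.Agent.H3.Mu.A6.L3
import Cfsg.Agent.H3.Mu.A6.P2
import Cfsg.Agent.H3.Mu.A6.P3

/-! The Schur multiplier. -/

set_option autoImplicit false
set_option maxRecDepth 100000

open Cfsg.Agent.L0

namespace Cfsg.Agent.H3.A6


theorem schur {G : Type*} [Group G] (hm : Model G 6 4 T Bf) :
    Finite G ∧ Nat.card G = 360 ∧ HasSchurMultiplier G (Multiplicative (ZMod 6)) := by
  obtain ⟨A, x, h⟩ := core' hm
  haveI := h.fin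
  have h2 := P2.pm h.base h.tab h.card
  have h3 := P3.pm h.base h.tab h.card
  have hr := pmult_rest h.card [] (by simp) (by decide +kernel) (by decide +kernel)
  exact ⟨h.fin, h.card, hasSchur_of (lower_six (lower_two h.pres L2rep L3rep
    [(-36, 1), (-72, 2), (-36, 5), (6, 6), (75, 7), (-2, 8), (-30, 9), (30, 10)]
    [(-8, 2), (2, 3), (-4, 5), (8, 7), (-2, 9)]
    (by decide +kernel) (by decide +kernel) (by decide +kernel)))
    (upper_cyclic (k2 := 1) (k3 := 1) rfl h2 h3 hr)⟩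

end Cfsg.Agent.H3.A6
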